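import Cfsg.Agent.H3.PSL2Fus

/-! The facts about `PSL(2, q)`, `q` odd, used for S1245. -/

set_option autoImplicit false

namespace Cfsg.Agent.Be

open Subgroup Cfsg.Agent.H3
open scoped MatrixGroups

/-- local structure of `PSL(2, q)`, `q` odd: a self-centralising four-group `⟨a, b⟩` permuted
cyclically by `d`, abelian centralisers of elements of order at least three -/
structure L2 {G : Type*} [Group G] (L : Subgroup G) (a b d : G) : Prop where
  aL : a ∈ L
  dL : d ∈ L
  aa : a * a = 1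
  a1 : a ≠ 1
  ab : a * b = b * a
  da : d * a * d⁻¹ = b
  db : d * b * d⁻¹ = a * b
  cent : ∀ y ∈ L, y * a = a * y → y * b = b * y → y = 1 ∨ y = a ∨ y = b ∨ y = a * b
  ca : ∀ x ∈ L, x * x ≠ 1 → ∀ y ∈ L, ∀ z ∈ L, y * x = x * y → z * x = x * z → y * z = z * y
  simp : (∀ N ≤ L, (∀ g ∈ L, ∀ x ∈ N, g * x * g⁻¹ ∈ N) → N = ⊥ ∨ N = L) ∨
    ∀ y ∈ L, y * y = 1 → y * a = a * y

theorem L2.of_equiv {G K : Type*} [Group G] [Group K] {L : Subgroup G} (e : L ≃* K) {a b d : K}
    (h : L2 ⊤ a b d) : L2 L (e.symm a) (e.symm b) (e.symm d) := by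
  have c : ∀ x y : L, (x : G) * y = y * x ↔ e x * e y = e y * e x := fun x y => by
    rw [← map_mul, ← map_mul, e.injective.eq_iff, Subtype.ext_iff]; rfl
  have c1 : ∀ x : L, (x : G) * x = 1 ↔ e x * e x = 1 := fun x => by
    rw [← map_mul, EmbeddingLike.map_eq_one_iff, Subtype.ext_iff]; rfl
  refine ⟨(e.symm a).2, (e.symm d).2, (c1 _).2 (by simpa using h.aa), by simpa using h.a1,
    (c _ _).2 (by simpa using h.ab), by rw [← h.da]; simp, by
      rw [← coe_mul (x := e.symm a), ← map_mul, ← h.db]; simp, fun y hy h1 h2 => ?_,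
    fun x hx h0 y hy z hz h1 h2 => (c ⟨y, hy⟩ ⟨z, hz⟩).2 (h.ca (e ⟨x, hx⟩) trivial
      (mt (c1 ⟨x, hx⟩).2 h0) _ trivial _ trivial ((c ⟨y, hy⟩ ⟨x, hx⟩).1 h1)
      ((c ⟨z, hz⟩ ⟨x, hx⟩).1 h2)), h.simp.imp (fun h1 N hN h2 => ?_) fun h1 y hy h2 =>
      (c ⟨y, hy⟩ _).2 (by simpa using h1 _ trivial ((c1 ⟨y, hy⟩).1 h2))⟩
  · have := h.cent (e ⟨y, hy⟩) trivial (by simpa using (c ⟨y, hy⟩ _).1 h1)
      (by simpa using (c ⟨y, hy⟩ _).1 h2)
    simpa [← MulEquiv.eq_symm_apply, Subtype.ext_iff] using this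
  · refine (h1 ((N.subgroupOf L).map e.toMonoidHom) le_top ?_).imp (fun h => ?_) fun h => ?_
    · rintro g - _ ⟨x, hx, rfl⟩
      obtain ⟨g, rfl⟩ := e.surjective g
      exact ⟨g * x * g⁻¹, h2 g g.2 x hx, by simp⟩
    · rw [map_eq_bot_iff_of_injective _ e.injective, subgroupOf_eq_bot, disjoint_iff,
        inf_eq_left.2 hN] at h
      exact h
    · refine le_antisymm hN fun x hx => ?_
      obtain ⟨y, hy, e'⟩ := h ▸ mem_top (e ⟨x, hx⟩)
      obtain rfl := e.injective e'
      exact hy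

variable {F : Type*} [Field F]

theorem sl2_neg {a b c d : F} {h} :
    -sl2 a b c d h = sl2 (-a) (-b) (-c) (-d) (by linear_combination h) := by
  rw [← neg_one_mul, sl2_neg_one, sl2_mul, sl2_eq_iff]; simp

theorem sl2_comm {x y z : SL(2, F)} (hx : x * x ≠ 1) (hy : y * x = x * y) (hz : z * x = x * z) :
    y * z = z * y := by
  obtain ⟨a, b, c, d, h, rfl⟩ := exists_sl2 x
  obtain ⟨p, q, r, s, _, rfl⟩ := exists_sl2 y
  obtain ⟨p', q', r', s', _, rfl⟩ := exists_sl2 z
  simp only [sl2_mul, sl2_one, sl2_eq_iff, Ne] at hx hy hz ⊢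
  obtain ⟨h1, h2, h3, -⟩ := hy
  obtain ⟨k1, k2, k3, -⟩ := hz
  have key : ∀ e : F, b * e = 0 → c * e = 0 → (a - d) * e = 0 → e = 0 := fun e e1 e2 e3 => by
    by_contra he
    obtain rfl := (mul_eq_zero.1 e1).resolve_right he
    obtain rfl := (mul_eq_zero.1 e2).resolve_right he
    obtain rfl := sub_eq_zero.1 ((mul_eq_zero.1 e3).resolve_right he)
    exact hx ⟨by linear_combination h, by ring, by ring, by linear_combination h⟩
  have e1 := key (q * r' - q' * r) (by linear_combination q' * h1 - q * k1)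
    (by linear_combination r' * h1 - r * k1) (by linear_combination -(p - s) * k1 - r' * h2 - q' * h3)
  have e2 := key (q' * (p - s) - q * (p' - s')) (by linear_combination q' * h2 - q * k2)
    (by linear_combination (p - s) * k1 + q * k3 + r' * h2)
    (by linear_combination (p' - s') * h2 - (p - s) * k2)
  have e3 := key (r' * (p - s) - r * (p' - s'))
    (by linear_combination -(p - s) * k1 - r * k2 - q' * h3) (by linear_combination r * k3 - r' * h3)
    (by linear_combination (p - s) * k3 - (p' - s') * h3)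
  exact ⟨by linear_combination e1, by linear_combination e2, by linear_combination -e3,
    by linear_combination -e1⟩

theorem sl2_anti (h2 : (2 : F) ≠ 0) {x y : SL(2, F)} (hy : y * x = -(x * y)) : x * x = -1 := by
  obtain ⟨a, b, c, d, h, rfl⟩ := exists_sl2 x
  obtain ⟨p, q, r, s, h', rfl⟩ := exists_sl2 y
  simp only [sl2_mul, sl2_neg_one, sl2_neg, sl2_eq_iff] at hy ⊢
  obtain ⟨h1, h3, h4, h5⟩ := hy
  obtain rfl : d = -a := eq_neg_of_add_eq_zero_right ((mul_eq_zero.1 (by
    linear_combination s * h1 - r * h3 - q * h4 + p * h5 - 2 * (a + d) * h' :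
      2 * (a + d) = 0)).resolve_left h2)
  exact ⟨by linear_combination -h, by ring, by ring, by linear_combination -h⟩

theorem exists_L2 [Fintype F] (hodd : Odd (Fintype.card F)) : ∃ a b d : PSL(2, F), L2 ⊤ a b d := by
  classical
  rw [Nat.odd_iff] at hodd
  have h2 : (2 : F) ≠ 0 := Ring.two_ne_zero fun h => by
    have := FiniteField.even_card_iff_char_two.1 h
    omega
  obtain ⟨x, y, hxy⟩ := exists_sq_add_sq hodd (-1 : F)
  obtain ⟨h, hh⟩ : ∃ h : F, 2 * h = 1 := ⟨2⁻¹, mul_inv_cancel₀ h2⟩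
  let π : SL(2, F) →* PSL(2, F) := QuotientGroup.mk' _
  have hs : Function.Surjective π := QuotientGroup.mk'_surjective _
  have h1 : ∀ X, π X = 1 ↔ X = 1 ∨ X = -1 := fun X =>
    (QuotientGroup.eq_one_iff X).trans (sl2_mem_center h2 X)
  have hn : ∀ X, π (-X) = π X := fun X => by
    rw [← neg_one_mul, map_mul, (h1 _).2 (Or.inr rfl), one_mul]
  have hc : ∀ X Y, π X * π Y = π Y * π X ↔ X * Y = Y * X ∨ X * Y = -(Y * X) := fun X Y => by
    rw [← mul_inv_eq_one, ← map_mul, ← map_mul, ← map_inv, ← map_mul, h1, mul_inv_eq_one,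
      mul_inv_eq_iff_eq_mul, neg_one_mul]
  let i : SL(2, F) := sl2 0 (-1) 1 0 (by ring)
  let j : SL(2, F) := sl2 x y y (-x) (by linear_combination -hxy)
  let w : SL(2, F) := sl2 (h * (1 + x - y)) (h * (x + y - 1)) (h * (1 + x + y)) (h * (1 - x + y))
    (by linear_combination (-2 * h ^ 2) * hxy + (2 * h + 1) * hh)
  have ii : i * i = -1 := by simp [i, sl2_mul, sl2_neg_one]
  have jj : j * j = -1 := by
    simp only [j, sl2_mul, sl2_neg_one, sl2_eq_iff]
    exact ⟨by linear_combination hxy, by ring, by ring, by linear_combination hxy⟩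
  have ij : j * i = -(i * j) := by simp [i, j, sl2_mul, sl2_neg]
  have pi : π i * π i = 1 := by rw [← map_mul, ii, hn, map_one]
  have pj : π j * π j = 1 := by rw [← map_mul, jj, hn, map_one]
  have pij : π i * π j = π j * π i := by rw [← map_mul, ← map_mul, ij, hn]
  have c0 : ∀ Y, Y * i = i * Y → Y * j = j * Y → π Y = 1 := fun Y e1 e2 => by
    obtain ⟨p, q, r, s, h', rfl⟩ := exists_sl2 Y
    refine (h1 _).2 (sl2_sq_eq_one h2 _ ?_)
    simp only [i, j, sq, sl2_mul, sl2_one, sl2_eq_iff] at e1 e2 ⊢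
    obtain rfl : r = -q := by linear_combination e1.1
    obtain rfl : p = s := by linear_combination -e1.2.1
    obtain rfl : q = 0 := (mul_eq_zero.1 (by
      linear_combination -y * e2.1 + x * e2.2.1 + 2 * q * hxy : 2 * q = 0)).resolve_left h2
    exact ⟨by linear_combination h', by ring, by ring, by linear_combination h'⟩
  refine ⟨π i, π j, π w, trivial, trivial, pi, fun e => ?_, pij, ?_, ?_, fun Y _ e1 e2 => ?_,
    fun X _ h0 Y _ Z _ e1 e2 => ?_, ?_⟩
  · simpa [i, sl2_one, sl2_neg, sl2_eq_iff] using (h1 i).1 e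
  · rw [mul_inv_eq_iff_eq_mul, ← map_mul, ← map_mul]; congr 1
    simp only [i, j, w, sl2_mul, sl2_eq_iff]
    exact ⟨by linear_combination -h * hxy, by linear_combination -h * hxy,
      by linear_combination h * hxy, by linear_combination -h * hxy⟩
  · rw [mul_inv_eq_iff_eq_mul, ← map_mul, ← map_mul, ← map_mul]; congr 1
    simp only [i, j, w, sl2_mul, sl2_eq_iff]
    exact ⟨by ring, by linear_combination 0 * hxy, by ring, by ring⟩
  · obtain ⟨Y, rfl⟩ := hs Y
    have inv : ∀ v, Y * v * i = i * (Y * v) → Y * v * j = j * (Y * v) → π v * π v = 1 →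
        π Y = π v := fun v e e' e'' => mul_right_cancel (by rw [← map_mul, c0 _ e e', e''])
    have ij' : i * j = -(j * i) := by rw [ij, neg_neg]
    rcases (hc _ _).1 e1 with e1 | e1 <;> rcases (hc _ _).1 e2 with e2 | e2
    · exact Or.inl (c0 Y e1 e2)
    · refine Or.inr (Or.inl (inv _ (by rw [← mul_assoc, ← e1]) ?_ pi))
      rw [mul_assoc, ij', mul_neg, ← mul_assoc, e2]; simp [mul_assoc]
    · refine Or.inr (Or.inr (Or.inl (inv _ ?_ (by rw [← mul_assoc, ← e2]) pj)))
      rw [mul_assoc, ij, mul_neg, ← mul_assoc, e1]; simp [mul_assoc]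
    · refine Or.inr (Or.inr (Or.inr ((inv (i * j) ?_ ?_ ?_).trans (map_mul _ _ _))))
      · rw [mul_assoc, mul_assoc, ij, mul_neg, mul_neg, ← mul_assoc, e1]; simp [mul_assoc]
      · rw [← mul_assoc j, ← neg_neg (j * Y), ← e2, neg_mul, mul_assoc Y j, ← mul_assoc j, ij]
        simp [mul_assoc]
      · rw [map_mul, mul_assoc, ← mul_assoc (π j), ← pij, mul_assoc, pj, mul_one, pi]
  · obtain ⟨X, rfl⟩ := hs X
    obtain ⟨Y, rfl⟩ := hs Y
    obtain ⟨Z, rfl⟩ := hs Z
    rw [← map_mul, Ne, h1, not_or] at h0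
    exact (hc _ _).2 (Or.inl (sl2_comm h0.1
      (((hc _ _).1 e1).resolve_right fun e => h0.2 (sl2_anti h2 e))
      (((hc _ _).1 e2).resolve_right fun e => h0.2 (sl2_anti h2 e))))
  · by_cases hF : ∃ a : F, a ≠ 0 ∧ a ^ 2 ≠ 1
    · have := Matrix.ProjectiveSpecialLinearGroup.rank_two_simple' hF
      exact Or.inl fun N _ hN => (Subgroup.Normal.mk fun n hn g => hN g trivial n hn).eq_bot_or_eq_top
    · push Not at hF
      refine Or.inr fun Y _ e => ?_
      obtain ⟨Y, rfl⟩ := hs Y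
      rw [← map_mul, h1] at e
      rcases e with e | e
      · rw [(h1 Y).2 (sl2_sq_eq_one h2 Y (by rw [sq, e])), one_mul, mul_one]
      · obtain ⟨p, q, r, s, h', rfl⟩ := exists_sl2 Y
        simp only [hc, i, sl2_mul, sl2_neg, sl2_neg_one, sl2_eq_iff] at e ⊢
        obtain ⟨e1, -, -, e2⟩ := e
        obtain rfl : s = -p := eq_neg_of_add_eq_zero_right (pow_eq_zero_iff two_ne_zero |>.1
          (by linear_combination e1 + e2 + 2 * h'))
        have h3 := hF 2 h2
        by_cases hp : p = 0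
        · subst hp
          have hq := hF q (by rintro rfl; simp at e1)
          obtain rfl : r = -q := by linear_combination q * e1 - r * hq
          simp
        · have e3 : q * r = 1 := by linear_combination e1 - hF p hp - h3
          have hq := hF q (left_ne_zero_of_mul_eq_one e3)
          obtain rfl : r = q := by linear_combination q * e3 - r * hq
          simp

end Cfsg.Agent.Be
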